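import Cfsg.Agent.Helper28.O73.Order
import Cfsg.Agent.Helper28.O73L.All
import Cfsg.Agent.Helper28.O73O.OrbAll
import Cfsg.Agent.Helper28.Grp2
import Cfsg.Agent.Helper28.Grp6
import Cfsg.Agent.Helper28.TCL3

/-!
# The group presented on `b, …, i`: order, a maximal subgroup, an element of order 13 (helper28)

`Q` has order `4585351680` and acts faithfully on the `3159` cosets of `H = ⟨b, …, h⟩` (coset
enumeration and a stabiliser chain).  `H` is maximal (rank 4, suborbits `1 + 288 + 630 + 2240`), `Q` is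
perfect, and the thirteenth power of `b c d e f g h i` is trivial.  So a nontrivial normal subgroup of
`Q` contains `b c d e f g h i`.
-/

set_option autoImplicit false

namespace Cfsg.Agent.Helper28.O73

open Cfsg.Agent.Helper28 Cfsg.Spor

/-- the subgroup generated by `b, …, h` -/
noncomputable abbrev H : Subgroup Q :=
  (Subgroup.closure ({Cfsg.Agent.Helper28.F22.Q1.b, Cfsg.Agent.Helper28.F22.Q1.c, Cfsg.Agent.Helper28.F22.Q1.d, Cfsg.Agent.Helper28.F22.Q1.e, Cfsg.Agent.Helper28.F22.Q1.f, Cfsg.Agent.Helper28.F22.Q1.g, Cfsg.Agent.Helper28.F22.Q1.h} : Set (FreeGroup Cfsg.Agent.Helper28.F22.Q1.Gen))).map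
    (PresentedGroup.mk (Cfsg.Spor.coxRelators Cfsg.Agent.Helper28.F22.Q1.edges ∪ {r | r ∈ Cfsg.Agent.Helper28.F22.Q1.extra}))

theorem card_inj : Nat.card Q = 4585351680 ∧ Function.Injective Cfsg.Agent.Helper28.F22Q1.cert.perm := by
  obtain ⟨hfin, hle⟩ := card_le
  have hlb := Cfsg.Agent.Helper28.O73L.lb_chain
  have e1 : 3159 * 2240 * 648 = 4585351680 := by norm_num
  have e2 : 3159 * (2016 * (720)) = 4585351680 := by norm_num
  rw [e1] at hlb
  rw [e2] at hle
  exact Cfsg.Agent.Helper28.F22Q1.cert.card_inj 4585351680 (by norm_num) _ hfin hle hlb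

theorem card_Q : Nat.card Q = 4585351680 := card_inj.1

theorem finite_Q : Finite Q := card_le.1

theorem fix_bot : Cfsg.Agent.Helper28.fixSub Cfsg.Agent.Helper28.F22Q1.cert.perm
    [Cfsg.Agent.Helper28.O73L.ov3 0, Cfsg.Agent.Helper28.O73L.ov2 0, 0] = ⊥ := by
  have := finite_Q
  have hlb := Cfsg.Agent.Helper28.O73L.lb_chain
  have e1 : 3159 * 2240 * 648 = 4585351680 := by norm_num
  rw [e1, card_Q] at hlb
  apply Subgroup.eq_bot_of_card_le
  exact Nat.le_of_mul_le_mul_left (by rw [Nat.mul_one]; exact hlb) (by norm_num)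

theorem index_H : H.index = 3159 := Cfsg.Agent.Helper28.F22Q1.cert.index_eq

theorem card_H : Nat.card H = 1451520 := by
  have h := H.card_mul_index
  rw [index_H, card_Q] at h
  have e : (4585351680 : ℕ) = 1451520 * 3159 := by norm_num
  rw [e] at h
  exact Nat.eq_of_mul_eq_mul_right (by norm_num) h

/-! ### perfect -/

theorem ab_all (x : Cfsg.Agent.Helper28.F22.Q1.Gen) :
    Abelianization.of (PresentedGroup.of x : Q) = Abelianization.of (PresentedGroup.of Cfsg.Agent.Helper28.F22.Q1.Gen.b : Q) := by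
  have hc := cox_ab_edge F22.Q1.edges F22.Q1.extra F22.Q1.Gen.b F22.Q1.Gen.c (node _) (node _) (by decide)
  have hd := cox_ab_edge F22.Q1.edges F22.Q1.extra F22.Q1.Gen.c F22.Q1.Gen.d (node _) (node _) (by decide)
  have he := cox_ab_edge F22.Q1.edges F22.Q1.extra F22.Q1.Gen.d F22.Q1.Gen.e (node _) (node _) (by decide)
  have hf := cox_ab_edge F22.Q1.edges F22.Q1.extra F22.Q1.Gen.e F22.Q1.Gen.f (node _) (node _) (by decide)
  have hg := cox_ab_edge F22.Q1.edges F22.Q1.extra F22.Q1.Gen.f F22.Q1.Gen.g (node _) (node _) (by decide)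
  have hh := cox_ab_edge F22.Q1.edges F22.Q1.extra F22.Q1.Gen.d F22.Q1.Gen.h (node _) (node _) (by decide)
  have hi := cox_ab_edge F22.Q1.edges F22.Q1.extra F22.Q1.Gen.h F22.Q1.Gen.i (node _) (node _) (by decide)
  cases x
  · rfl
  · rw [← hc]
  · rw [← hd, ← hc]
  · rw [← he, ← hd, ← hc]
  · rw [← hf, ← he, ← hd, ← hc]
  · rw [← hg, ← hf, ← he, ← hd, ← hc]
  · rw [← hh, ← hd, ← hc]
  · rw [← hi, ← hh, ← hd, ← hc]

theorem ab_one (x : Cfsg.Agent.Helper28.F22.Q1.Gen) : Abelianization.of (PresentedGroup.of x : Q) = 1 := by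
  rw [ab_all x]
  have h2 := cox_ab_sq F22.Q1.edges F22.Q1.extra F22.Q1.Gen.b (node _)
  have hrel : (PresentedGroup.mk (coxRelators F22.Q1.edges ∪ {r | r ∈ F22.Q1.extra})
      ((F22.Q1.b * F22.Q1.c * F22.Q1.d * F22.Q1.e * F22.Q1.f * F22.Q1.g * F22.Q1.h) ^ 9) : Q) = 1 :=
    PresentedGroup.one_of_mem (Or.inr (by simp [F22.Q1.extra]))
  have h63 := congrArg (Abelianization.of : Q →* Abelianization Q) hrel
  rw [map_pow, map_mul, map_mul, map_mul, map_mul, map_mul, map_mul, map_one] at h63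
  have h63' : (Abelianization.of (PresentedGroup.of F22.Q1.Gen.b : Q) *
      Abelianization.of (PresentedGroup.of F22.Q1.Gen.c : Q) *
      Abelianization.of (PresentedGroup.of F22.Q1.Gen.d : Q) *
      Abelianization.of (PresentedGroup.of F22.Q1.Gen.e : Q) *
      Abelianization.of (PresentedGroup.of F22.Q1.Gen.f : Q) *
      Abelianization.of (PresentedGroup.of F22.Q1.Gen.g : Q) *
      Abelianization.of (PresentedGroup.of F22.Q1.Gen.h : Q)) ^ 9 = 1 := h63
  rw [ab_all F22.Q1.Gen.c, ab_all F22.Q1.Gen.d, ab_all F22.Q1.Gen.e, ab_all F22.Q1.Gen.f,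
    ab_all F22.Q1.Gen.g, ab_all F22.Q1.Gen.h] at h63'
  clear h63
  generalize Abelianization.of (PresentedGroup.of F22.Q1.Gen.b : Q) = v at *
  have h2' : v ^ 2 = 1 := by rw [pow_two]; exact h2
  calc v = (v ^ 2) ^ 31 * v := by rw [h2', one_pow, one_mul]
    _ = (v * v * v * v * v * v * v) ^ 9 := by
      rw [← pow_mul, ← pow_succ]
      have : v * v * v * v * v * v * v = v ^ 7 := by
        simp only [pow_succ, pow_zero, one_mul]
      rw [this, ← pow_mul]
    _ = 1 := h63'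

theorem perfect : commutator Q = ⊤ :=
  commutator_eq_top_of_gens _ ab_one

/-! ### maximality of `H` -/

theorem maximal (L : Subgroup Q) (hL : H ≤ L) : L = H ∨ L = ⊤ := by
  obtain ⟨e, he, _⟩ := Cfsg.Agent.Helper28.F22Q1.cert.exists_equiv
  have o1 := Cfsg.Agent.Helper28.F22Q1.cert.orbit_cert e he 288 Cfsg.Agent.Helper28.O73O.ov1 Cfsg.Agent.Helper28.O73O.op1 Cfsg.Agent.Helper28.O73O.otp1 Cfsg.Agent.Helper28.O73O.otw1 (by decide) Cfsg.Agent.Helper28.O73O.orb1_all Cfsg.Agent.Helper28.O73O.ov1_lt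
  have o2 := Cfsg.Agent.Helper28.F22Q1.cert.orbit_cert e he 630 Cfsg.Agent.Helper28.O73O.ov2 Cfsg.Agent.Helper28.O73O.op2 Cfsg.Agent.Helper28.O73O.otp2 Cfsg.Agent.Helper28.O73O.otw2 (by decide) Cfsg.Agent.Helper28.O73O.orb2_all Cfsg.Agent.Helper28.O73O.ov2_lt
  have o3 := Cfsg.Agent.Helper28.F22Q1.cert.orbit_cert e he 2240 Cfsg.Agent.Helper28.O73O.ov3 Cfsg.Agent.Helper28.O73O.op3 Cfsg.Agent.Helper28.O73O.otp3 Cfsg.Agent.Helper28.O73O.otw3 (by decide) Cfsg.Agent.Helper28.O73O.orb3_all Cfsg.Agent.Helper28.O73O.ov3_lt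
  have hidx : H.index = 3159 := index_H
  have h1 := o1.1
  have h2 := o2.1
  have h3 := o3.1
  refine maximal_of_orbits H
    ![e.symm ⟨Cfsg.Agent.Helper28.O73O.ov1 0, Cfsg.Agent.Helper28.O73O.ov1_lt⟩,
      e.symm ⟨Cfsg.Agent.Helper28.O73O.ov2 0, Cfsg.Agent.Helper28.O73O.ov2_lt⟩,
      e.symm ⟨Cfsg.Agent.Helper28.O73O.ov3 0, Cfsg.Agent.Helper28.O73O.ov3_lt⟩]
    ![288, 630, 2240] ?_ ?_ ?_ ?_ ?_ L hL
  · intro i
    fin_cases i
    · exact h1
    · exact h2
    · exact h3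
  · intro i j hij
    have key : ∀ i : Fin 3, (MulAction.orbit H (![e.symm ⟨Cfsg.Agent.Helper28.O73O.ov1 0, Cfsg.Agent.Helper28.O73O.ov1_lt⟩,
      e.symm ⟨Cfsg.Agent.Helper28.O73O.ov2 0, Cfsg.Agent.Helper28.O73O.ov2_lt⟩,
      e.symm ⟨Cfsg.Agent.Helper28.O73O.ov3 0, Cfsg.Agent.Helper28.O73O.ov3_lt⟩] i)).ncard = ![288, 630, 2240] i := by
      intro i
      fin_cases i
      · exact h1
      · exact h2
      · exact h3
    apply orbit_disjoint_of_ncard_ne
    rw [key i, key j]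
    fin_cases i <;> fin_cases j <;> first | exact absurd rfl hij | decide
  · intro i
    apply mk_one_notMem_orbit
    fin_cases i
    · show 1 < (MulAction.orbit _ (e.symm ⟨Cfsg.Agent.Helper28.O73O.ov1 0, Cfsg.Agent.Helper28.O73O.ov1_lt⟩)).ncard
      rw [h1]; norm_num
    · show 1 < (MulAction.orbit _ (e.symm ⟨Cfsg.Agent.Helper28.O73O.ov2 0, Cfsg.Agent.Helper28.O73O.ov2_lt⟩)).ncard
      rw [h2]; norm_num
    · show 1 < (MulAction.orbit _ (e.symm ⟨Cfsg.Agent.Helper28.O73O.ov3 0, Cfsg.Agent.Helper28.O73O.ov3_lt⟩)).ncard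
      rw [h3]; norm_num
  · rw [hidx, Fin.sum_univ_three]
    rfl
  · rw [hidx]
    decide

theorem core_trivial (N : Subgroup Q) (hN : N.Normal) (hle : N ≤ H) : N = ⊥ := by
  have h1 := Cfsg.Agent.Helper28.F22Q1.cert.normal_le_ker N hN hle
  rw [(MonoidHom.ker_eq_bot_iff _).mpr card_inj.2] at h1
  exact le_bot_iff.mp h1

/-! ### an element of order 13 -/

/-- the element `b c d e f g h i` -/
noncomputable def x13 : Q :=
  ([0, 1, 2, 3, 4, 5, 6, 7].map (coxVal F22.Q1.edges F22.Q1.extra Cfsg.Agent.Helper28.F22Q1.gen 8)).prod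

theorem x13_pow : x13 ^ 13 = 1 := by
  have h := Cfsg.Agent.Helper28.F22Q1.cert.word_eq_base _ fix_bot
    (List.replicate 13 [0, 1, 2, 3, 4, 5, 6, 7]).flatten [] (by decide +kernel) (by decide +kernel)
    (by decide +kernel)
  rw [prod_replicate_flatten] at h
  exact h

/-- A nontrivial normal subgroup contains the element `b c d e f g h i`. -/
theorem x13_mem (N : Subgroup Q) (hN : N.Normal) (hne : N ≠ ⊥) : x13 ∈ N := by
  apply mem_normal_of_pow_prime H N hN maximal (fun hle => hne (core_trivial N hN hle)) 13 (by norm_num)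
    (by rw [card_H]; norm_num) x13 x13_pow

end Cfsg.Agent.Helper28.O73
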