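import Cfsg.Agent.Helper28.O73.Psi
import Cfsg.Agent.Helper28.O73.Grp
import Cfsg.Agent.Helper28.F22.Simple
import Cfsg.Agent.S0292

/-!
# The group presented on `b, …, i` is `PΩ(7, 3)` (helper28)

The homomorphism `psi0` to the isometry group has its image in the commutator subgroup `Ω`, since the
presented group `Q` is perfect; composing with the quotient map gives `psi : Q →* PΩ(7, 3)`.  A
nontrivial kernel would contain the element `b c d e f g h i` (`x13_mem`), whose matrix would then be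
central in `Ω`; but it does not commute with the matrix of `b`.  So `psi` is injective, and it is
bijective as both groups have order `4585351680` (`Cfsg.Agent.S0292.result` for the orthogonal group).
The same count shows that `Q` maps isomorphically onto the subgroup `⟨b, …, i⟩` of Fi22.
-/

set_option autoImplicit false

namespace Cfsg.Agent.Helper28.O73

open Cfsg.Agent.Helper28 Matrix Cfsg.Spor

theorem psi0_mem (x : Q) : psi0 x ∈ Cfsg.Omega F3 (Cfsg.quadFormOdd 3 F3) := by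
  have hx : x ∈ commutator Q := by rw [perfect]; trivial
  rw [commutator_def] at hx
  have h1 : psi0 x ∈ Subgroup.map psi0 ⁅(⊤ : Subgroup Q), ⊤⁆ := Subgroup.mem_map_of_mem _ hx
  rw [Subgroup.map_commutator] at h1
  show psi0 x ∈ commutator _
  rw [commutator_def]
  exact Subgroup.commutator_mono le_top le_top h1

/-- the homomorphism to `Ω` -/
noncomputable def psi1 : Q →* Cfsg.Omega F3 (Cfsg.quadFormOdd 3 F3) := psi0.codRestrict _ psi0_mem

theorem psi1_val (x : Q) :
    ((psi1 x : Cfsg.Omega F3 (Cfsg.quadFormOdd 3 F3)) : Cfsg.isometryGroup F3 (Cfsg.quadFormOdd 3 F3)) =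
      psi0 x := rfl

/-- the homomorphism to `PΩ` -/
noncomputable def psi : Q →* Cfsg.POmega F3 (Cfsg.quadFormOdd 3 F3) :=
  (QuotientGroup.mk' (Subgroup.center (Cfsg.Omega F3 (Cfsg.quadFormOdd 3 F3)))).comp psi1

theorem psi0_word (l : List ℕ) (hl : ∀ a ∈ l, a < 8) :
    psi0 ((l.map (coxVal F22.Q1.edges F22.Q1.extra Cfsg.Agent.Helper28.F22Q1.gen 8)).prod) =
      (l.map (fun k => gO (Cfsg.Agent.Helper28.F22Q1.gen k))).prod := by
  induction l with
  | nil => rw [List.map_nil, List.prod_nil, map_one, List.map_nil, List.prod_nil]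
  | cons a l ih =>
    rw [List.map_cons, List.prod_cons, map_mul, ih (fun b hb => hl b (List.mem_cons_of_mem _ hb)),
      List.map_cons, List.prod_cons]
    congr 1
    unfold coxVal
    rw [if_pos (hl a List.mem_cons_self), psi0_of]

theorem psi0_word_mat (l : List ℕ) (hl : ∀ a ∈ l, a < 8) :
    (((psi0 ((l.map (coxVal F22.Q1.edges F22.Q1.extra Cfsg.Agent.Helper28.F22Q1.gen 8)).prod) :
      Cfsg.isometryGroup F3 (Cfsg.quadFormOdd 3 F3)) : Matrix.GeneralLinearGroup I7 F3) :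
        Matrix I7 I7 F3) = (l.map (fun k => toM (gm k))).prod := by
  rw [psi0_word l hl, gO_val_prod]

theorem noncomm : ([0, 0, 1, 2, 3, 4, 5, 6, 7].map (fun k => toM (gm k))).prod ≠
    ([0, 1, 2, 3, 4, 5, 6, 7, 0].map (fun k => toM (gm k))).prod := by
  intro h
  have h1 : ([0, 0, 1, 2, 3, 4, 5, 6, 7].map (fun k => toM (gm k))).prod *ᵥ toV (vecOf 1) =
      ([0, 1, 2, 3, 4, 5, 6, 7, 0].map (fun k => toM (gm k))).prod *ᵥ toV (vecOf 1) := by rw [h]
  rw [prod_mulVec, prod_mulVec] at h1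
  exact absurd (toV_injective h1) (by decide +kernel)

theorem psi_injective : Function.Injective psi := by
  rw [← MonoidHom.ker_eq_bot_iff]
  by_contra hne
  have hx := x13_mem psi.ker (MonoidHom.normal_ker psi) hne
  rw [MonoidHom.mem_ker] at hx
  have hc : psi1 x13 ∈ Subgroup.center (Cfsg.Omega F3 (Cfsg.quadFormOdd 3 F3)) :=
    (QuotientGroup.eq_one_iff _).mp hx
  have hcomm := Subgroup.mem_center_iff.mp hc (psi1 (PresentedGroup.of F22.Q1.Gen.b))
  rw [← map_mul, ← map_mul] at hcomm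
  have h0 : psi0 (PresentedGroup.of F22.Q1.Gen.b * x13) = psi0 (x13 * PresentedGroup.of F22.Q1.Gen.b) := by
    rw [← psi1_val, ← psi1_val, hcomm]
  have eb : (PresentedGroup.of F22.Q1.Gen.b : Q) =
      coxVal F22.Q1.edges F22.Q1.extra Cfsg.Agent.Helper28.F22Q1.gen 8 0 := by
    unfold coxVal
    rw [if_pos (by norm_num)]
    rfl
  have e1 : PresentedGroup.of F22.Q1.Gen.b * x13 =
      ([0, 0, 1, 2, 3, 4, 5, 6, 7].map (coxVal F22.Q1.edges F22.Q1.extra Cfsg.Agent.Helper28.F22Q1.gen 8)).prod := by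
    rw [List.map_cons, List.prod_cons, ← eb]
    rfl
  have e2 : x13 * PresentedGroup.of F22.Q1.Gen.b =
      (([0, 1, 2, 3, 4, 5, 6, 7] ++ [0]).map (coxVal F22.Q1.edges F22.Q1.extra Cfsg.Agent.Helper28.F22Q1.gen 8)).prod := by
    rw [List.map_append, List.prod_append]
    have e3 : ([0].map (coxVal F22.Q1.edges F22.Q1.extra Cfsg.Agent.Helper28.F22Q1.gen 8)).prod =
        PresentedGroup.of F22.Q1.Gen.b := by
      rw [List.map_cons, List.map_nil, List.prod_cons, List.prod_nil, mul_one, ← eb]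
    rw [e3]
    rfl
  rw [e1, e2] at h0
  have h2 : (((psi0 (([0, 0, 1, 2, 3, 4, 5, 6, 7].map
      (coxVal F22.Q1.edges F22.Q1.extra Cfsg.Agent.Helper28.F22Q1.gen 8)).prod) :
      Cfsg.isometryGroup F3 (Cfsg.quadFormOdd 3 F3)) : Matrix.GeneralLinearGroup I7 F3) :
        Matrix I7 I7 F3) = (((psi0 ((([0, 1, 2, 3, 4, 5, 6, 7] ++ [0]).map
      (coxVal F22.Q1.edges F22.Q1.extra Cfsg.Agent.Helper28.F22Q1.gen 8)).prod) :
      Cfsg.isometryGroup F3 (Cfsg.quadFormOdd 3 F3)) : Matrix.GeneralLinearGroup I7 F3) :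
        Matrix I7 I7 F3) := by rw [h0]
  rw [psi0_word_mat _ (by decide), psi0_word_mat _ (by decide)] at h2
  exact noncomm h2

theorem card_PO : Nat.card (Cfsg.POmega F3 (Cfsg.quadFormOdd 3 F3)) = 4585351680 := by
  have h := Cfsg.Agent.S0292.result (F := ZMod 3) (q := 3) (ZMod.card 3) (by decide) 3 (le_refl 3)
  have e : 3 ^ (3 ^ 2) * ∏ i ∈ Finset.range 3, (3 ^ (2 * (i + 1)) - 1) = 2 * 4585351680 := by
    norm_num [Finset.prod_range_succ]
  rw [e] at h
  exact Nat.eq_of_mul_eq_mul_left (by norm_num) h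

theorem psi_bijective : Function.Bijective psi := by
  have : Finite (Cfsg.POmega F3 (Cfsg.quadFormOdd 3 F3)) :=
    Nat.finite_of_card_ne_zero (by rw [card_PO]; norm_num)
  rw [Nat.bijective_iff_injective_and_card]
  exact ⟨psi_injective, by rw [card_Q, card_PO]⟩

/-- The group presented on `b, …, i` is `PΩ(7, 3)`. -/
noncomputable def isoPO : Q ≃* Cfsg.POmega F3 (Cfsg.quadFormOdd 3 F3) :=
  MulEquiv.ofBijective psi psi_bijective

theorem f1_injective : Function.Injective Cfsg.Agent.Helper28.F22.f1 := by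
  have := finite_Q
  have hr : Nat.card Cfsg.Agent.Helper28.F22.f1.range = 4585351680 := by
    rw [Cfsg.Agent.Helper28.F22.range1]
    have h := ((Subgroup.closure ({Cfsg.Spor.Fi22.b, Cfsg.Spor.Fi22.c, Cfsg.Spor.Fi22.d, Cfsg.Spor.Fi22.e, Cfsg.Spor.Fi22.f, Cfsg.Spor.Fi22.g, Cfsg.Spor.Fi22.h, Cfsg.Spor.Fi22.i} : Set (FreeGroup Cfsg.Spor.Fi22.Gen))).map (PresentedGroup.mk (Cfsg.Spor.coxRelators Cfsg.Spor.Fi22.edges ∪ {r | r ∈ Cfsg.Spor.Fi22.extra}))).card_mul_index
    rw [Cfsg.Agent.Helper28.C1685.cert.index_eq, Cfsg.Agent.Helper28.F22.card_eq] at h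
    have e : (64561751654400 : ℕ) = 4585351680 * 14080 := by norm_num
    rw [e] at h
    exact Nat.eq_of_mul_eq_mul_right (by norm_num) h
  have hbij : Function.Bijective Cfsg.Agent.Helper28.F22.f1.rangeRestrict := by
    rw [Nat.bijective_iff_surjective_and_card]
    exact ⟨Cfsg.Agent.Helper28.F22.f1.rangeRestrict_surjective, by rw [hr]; exact card_Q⟩
  intro x y h
  apply hbij.1
  exact Subtype.ext h

/-- The subgroup `⟨b, …, i⟩` of Fi22 is `PΩ(7, 3)`. -/
noncomputable def isoFi : ((Subgroup.closure ({Cfsg.Spor.Fi22.b, Cfsg.Spor.Fi22.c, Cfsg.Spor.Fi22.d, Cfsg.Spor.Fi22.e, Cfsg.Spor.Fi22.f, Cfsg.Spor.Fi22.g, Cfsg.Spor.Fi22.h, Cfsg.Spor.Fi22.i} : Set (FreeGroup Cfsg.Spor.Fi22.Gen))).map (PresentedGroup.mk (Cfsg.Spor.coxRelators Cfsg.Spor.Fi22.edges ∪ {r | r ∈ Cfsg.Spor.Fi22.extra}))) ≃*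
    Cfsg.POmega F3 (Cfsg.quadFormOdd 3 F3) :=
  ((MulEquiv.subgroupCongr Cfsg.Agent.Helper28.F22.range1).symm.trans
    (MonoidHom.ofInjective f1_injective).symm).trans isoPO

end Cfsg.Agent.Helper28.O73
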