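import Mathlib
import Cfsg.Prelude.Def_Classical
import Cfsg.Agent.Helper28.TCP

/-!
# A computable model of `7 × 7` matrices over the integers mod 3 (helper28)

The three residues are the elements of an inductive type `T3` with operations by cases, so that the
kernel computes with them quickly.  Vectors are 7-tuples, matrices are 7-tuples of rows; `toV` and `toM`
turn them into Mathlib vectors and matrices over `ZMod 3` indexed by `Unit ⊕ (Fin 3 ⊕ Fin 3)`.  Vectors
are also coded by the numbers below `3 ^ 7`, so that a product of matrices can be followed on a vector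
by kernel arithmetic.
-/

set_option autoImplicit false

namespace Cfsg.Agent.Helper28.O73

open Cfsg.Agent.Helper28 Matrix

/-- the residues mod 3 -/
inductive T3 : Type
  | z | o | t
  deriving DecidableEq

namespace T3

instance : Fintype T3 := ⟨⟨[z, o, t], by decide⟩, fun x => by cases x <;> decide⟩

/-- addition -/
def add : T3 → T3 → T3
  | z, x => x
  | x, z => x
  | o, o => t
  | o, t => z
  | t, o => z
  | t, t => o

/-- multiplication -/
def mul : T3 → T3 → T3
  | z, _ => z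
  | _, z => z
  | o, x => x
  | x, o => x
  | t, t => o

/-- the residue as an element of `ZMod 3` -/
def c : T3 → ZMod 3
  | z => 0
  | o => 1
  | t => 2

/-- the residue of an element of `ZMod 3` -/
def d (x : ZMod 3) : T3 := cond (Nat.beq x.val 0) z (cond (Nat.beq x.val 1) o t)

/-- the residue as a number -/
def dig : T3 → ℕ
  | z => 0
  | o => 1
  | t => 2

theorem c_add (x y : T3) : c (add x y) = c x + c y := by cases x <;> cases y <;> decide

theorem c_mul (x y : T3) : c (mul x y) = c x * c y := by cases x <;> cases y <;> decide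

theorem c_d (x : ZMod 3) : c (d x) = x := by revert x; decide

theorem d_c (x : T3) : d (c x) = x := by cases x <;> decide

theorem dig_lt (x : T3) : dig x < 3 := by cases x <;> decide

end T3

/-- the field -/
abbrev F3 : Type := ZMod 3

/-- the index type -/
abbrev I7 : Type := Unit ⊕ (Fin 3 ⊕ Fin 3)

/-- vectors -/
abbrev V7 : Type := T3 × T3 × T3 × T3 × T3 × T3 × T3

/-- matrices, by rows -/
abbrev M7 : Type := V7 × V7 × V7 × V7 × V7 × V7 × V7

/-- the product of a row and a vector -/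
def dot (r v : V7) : T3 :=
  T3.add (T3.mul r.1 v.1) (T3.add (T3.mul r.2.1 v.2.1) (T3.add (T3.mul r.2.2.1 v.2.2.1)
    (T3.add (T3.mul r.2.2.2.1 v.2.2.2.1) (T3.add (T3.mul r.2.2.2.2.1 v.2.2.2.2.1)
      (T3.add (T3.mul r.2.2.2.2.2.1 v.2.2.2.2.2.1) (T3.mul r.2.2.2.2.2.2 v.2.2.2.2.2.2))))))

/-- the product of a matrix and a vector -/
def mv (m : M7) (v : V7) : V7 :=
  (dot m.1 v, dot m.2.1 v, dot m.2.2.1 v, dot m.2.2.2.1 v, dot m.2.2.2.2.1 v, dot m.2.2.2.2.2.1 v,
    dot m.2.2.2.2.2.2 v)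

/-- a vector as a function -/
def toV (v : V7) : I7 → F3 :=
  Sum.elim (fun _ => T3.c v.1) (Sum.elim ![T3.c v.2.1, T3.c v.2.2.1, T3.c v.2.2.2.1]
    ![T3.c v.2.2.2.2.1, T3.c v.2.2.2.2.2.1, T3.c v.2.2.2.2.2.2])

/-- a function as a vector -/
def ofFun (u : I7 → F3) : V7 :=
  (T3.d (u (.inl ())), T3.d (u (.inr (.inl 0))), T3.d (u (.inr (.inl 1))), T3.d (u (.inr (.inl 2))),
    T3.d (u (.inr (.inr 0))), T3.d (u (.inr (.inr 1))), T3.d (u (.inr (.inr 2))))

/-- a matrix of the model as a matrix -/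
def toM (m : M7) : Matrix I7 I7 F3 :=
  Matrix.of (Sum.elim (fun _ => toV m.1) (Sum.elim ![toV m.2.1, toV m.2.2.1, toV m.2.2.2.1]
    ![toV m.2.2.2.2.1, toV m.2.2.2.2.2.1, toV m.2.2.2.2.2.2]))

theorem toV_ofFun (u : I7 → F3) : toV (ofFun u) = u := by
  funext i
  rcases i with u' | i | i
  · cases u'; exact T3.c_d _
  · fin_cases i <;> exact T3.c_d _
  · fin_cases i <;> exact T3.c_d _

theorem ofFun_toV (v : V7) : ofFun (toV v) = v := by
  rcases v with ⟨a, b, c, d, e, f, g⟩
  simp [ofFun, toV, T3.d_c]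

theorem toV_injective : Function.Injective toV := by
  intro v w h
  rw [← ofFun_toV v, ← ofFun_toV w, h]

theorem toM_mulVec (m : M7) (v : V7) : toM m *ᵥ toV v = toV (mv m v) := by
  funext i
  rcases i with i | i | i
  · simp [toM, toV, mv, dot, Matrix.mulVec, dotProduct, Fintype.sum_sum_type, Fin.sum_univ_three,
      T3.c_add, T3.c_mul, add_assoc]
  · fin_cases i <;>
      simp [toM, toV, mv, dot, Matrix.mulVec, dotProduct, Fintype.sum_sum_type, Fin.sum_univ_three,
        T3.c_add, T3.c_mul, add_assoc]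
  · fin_cases i <;>
      simp [toM, toV, mv, dot, Matrix.mulVec, dotProduct, Fintype.sum_sum_type, Fin.sum_univ_three,
        T3.c_add, T3.c_mul, add_assoc]

/-- the quadratic form `x₀² + x₁y₁ + x₂y₂ + x₃y₃` on the model -/
def qf (v : V7) : T3 :=
  T3.add (T3.mul v.1 v.1) (T3.add (T3.mul v.2.1 v.2.2.2.2.1) (T3.add (T3.mul v.2.2.1 v.2.2.2.2.2.1)
    (T3.mul v.2.2.2.1 v.2.2.2.2.2.2)))

theorem quad_toV (v : V7) : Cfsg.quadFormOdd 3 F3 (toV v) = T3.c (qf v) := by
  simp [Cfsg.quadFormOdd, toV, qf, Fin.sum_univ_three, T3.c_add, T3.c_mul, pow_two, add_assoc]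

/-- the residue of a digit -/
def ofDig (d : ℕ) : T3 := cond (Nat.beq d 0) T3.z (cond (Nat.beq d 1) T3.o T3.t)

/-- the vector with a given code -/
def vecOf (i : ℕ) : V7 :=
  (ofDig (i % 3), ofDig (i / 3 % 3), ofDig (i / 9 % 3), ofDig (i / 27 % 3), ofDig (i / 81 % 3),
    ofDig (i / 243 % 3), ofDig (i / 729 % 3))

/-- the code of a vector -/
def codeOf (v : V7) : ℕ :=
  T3.dig v.1 + 3 * T3.dig v.2.1 + 9 * T3.dig v.2.2.1 + 27 * T3.dig v.2.2.2.1 + 81 * T3.dig v.2.2.2.2.1 +
    243 * T3.dig v.2.2.2.2.2.1 + 729 * T3.dig v.2.2.2.2.2.2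

theorem ofDig_dig (x : T3) : ofDig (T3.dig x) = x := by cases x <;> rfl

theorem vecOf_codeOf (v : V7) : vecOf (codeOf v) = v := by
  rcases v with ⟨a, b, c, d, e, f, g⟩
  have ha := T3.dig_lt a
  have hb := T3.dig_lt b
  have hc := T3.dig_lt c
  have hd := T3.dig_lt d
  have he := T3.dig_lt e
  have hf := T3.dig_lt f
  have hg := T3.dig_lt g
  simp only [vecOf, codeOf]
  have e1 : (a.dig + 3 * b.dig + 9 * c.dig + 27 * d.dig + 81 * e.dig + 243 * f.dig + 729 * g.dig) % 3 = a.dig := by omega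
  have e2 : (a.dig + 3 * b.dig + 9 * c.dig + 27 * d.dig + 81 * e.dig + 243 * f.dig + 729 * g.dig) / 3 % 3 = b.dig := by omega
  have e3 : (a.dig + 3 * b.dig + 9 * c.dig + 27 * d.dig + 81 * e.dig + 243 * f.dig + 729 * g.dig) / 9 % 3 = c.dig := by omega
  have e4 : (a.dig + 3 * b.dig + 9 * c.dig + 27 * d.dig + 81 * e.dig + 243 * f.dig + 729 * g.dig) / 27 % 3 = d.dig := by omega
  have e5 : (a.dig + 3 * b.dig + 9 * c.dig + 27 * d.dig + 81 * e.dig + 243 * f.dig + 729 * g.dig) / 81 % 3 = e.dig := by omega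
  have e6 : (a.dig + 3 * b.dig + 9 * c.dig + 27 * d.dig + 81 * e.dig + 243 * f.dig + 729 * g.dig) / 243 % 3 = f.dig := by omega
  have e7 : (a.dig + 3 * b.dig + 9 * c.dig + 27 * d.dig + 81 * e.dig + 243 * f.dig + 729 * g.dig) / 729 % 3 = g.dig := by omega
  rw [e1, e2, e3, e4, e5, e6, e7, ofDig_dig, ofDig_dig, ofDig_dig, ofDig_dig, ofDig_dig, ofDig_dig, ofDig_dig]

end Cfsg.Agent.Helper28.O73
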