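import Cfsg.Agent.Helper28.F22.Pres

/-!
# The group presented on the generators `b, …, i` of the presentation of Fi22 (helper28)

`Q` is the group presented on `b, …, i` by the relators of Fi22 among them (it is `PΩ(7, 3)`).
-/

set_option autoImplicit false

namespace Cfsg.Agent.Helper28.O73

/-- the group presented on `b, …, i` -/
abbrev Q : Type := Cfsg.Spor.CoxPresented Cfsg.Agent.Helper28.F22.Q1.Gen Cfsg.Agent.Helper28.F22.Q1.edges
  Cfsg.Agent.Helper28.F22.Q1.extra

/-- the inclusion of the generators `b, …, h` -/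
def inc2 : Cfsg.Agent.Helper28.F22.Q2.Gen → Cfsg.Agent.Helper28.F22.Q1.Gen
  | .b => .b
  | .c => .c
  | .d => .d
  | .e => .e
  | .f => .f
  | .g => .g
  | .h => .h

/-- the inclusion of the generators `b, …, f` -/
def inc3 : Cfsg.Agent.Helper28.F22.Q3.Gen → Cfsg.Agent.Helper28.F22.Q1.Gen
  | .b => .b
  | .c => .c
  | .d => .d
  | .e => .e
  | .f => .f

end Cfsg.Agent.Helper28.O73
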