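import Cfsg.Agent.Helper28.CoxG
import Cfsg.Agent.Helper28.Grp
import Cfsg.Agent.Helper28.F22Q1.Cert
import Cfsg.Agent.Helper28.O73.Pres
import Cfsg.Agent.Helper28.F22Q2.Cert
import Cfsg.Agent.Helper28.F22Q3.Cert

/-! The group presented on the generators `b, …, i` of Fi22 has order at most `3159 * 2016 * 720`: a tower of subgroups (generated). -/

set_option autoImplicit false

namespace Cfsg.Agent.Helper28.O73

theorem node (x : Cfsg.Agent.Helper28.F22.Q1.Gen) : x ∈ Cfsg.Spor.coxNodes Cfsg.Agent.Helper28.F22.Q1.edges := Cfsg.Agent.Helper28.F22Q1.cert.hnode x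

theorem relE1_0 : FreeGroup.lift (fun y => (PresentedGroup.of (Cfsg.Agent.Helper28.O73.inc2 y) : Cfsg.Agent.Helper28.O73.Q)) ((Cfsg.Agent.Helper28.F22.Q2.b * Cfsg.Agent.Helper28.F22.Q2.c * Cfsg.Agent.Helper28.F22.Q2.d * Cfsg.Agent.Helper28.F22.Q2.e * Cfsg.Agent.Helper28.F22.Q2.f * Cfsg.Agent.Helper28.F22.Q2.g * Cfsg.Agent.Helper28.F22.Q2.h) ^ 9) = 1 := by
  rw [Cfsg.Agent.Helper28.lift_of_comp]
  have e : FreeGroup.map Cfsg.Agent.Helper28.O73.inc2 ((Cfsg.Agent.Helper28.F22.Q2.b * Cfsg.Agent.Helper28.F22.Q2.c * Cfsg.Agent.Helper28.F22.Q2.d * Cfsg.Agent.Helper28.F22.Q2.e * Cfsg.Agent.Helper28.F22.Q2.f * Cfsg.Agent.Helper28.F22.Q2.g * Cfsg.Agent.Helper28.F22.Q2.h) ^ 9) = (Cfsg.Agent.Helper28.F22.Q1.b * Cfsg.Agent.Helper28.F22.Q1.c * Cfsg.Agent.Helper28.F22.Q1.d * Cfsg.Agent.Helper28.F22.Q1.e * Cfsg.Agent.Helper28.F22.Q1.f * Cfsg.Agent.Helper28.F22.Q1.g * Cfsg.Agent.Helper28.F22.Q1.h)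 ^ 9 := by
    simp only [map_pow, map_mul, map_inv, FreeGroup.map.of, Cfsg.Agent.Helper28.O73.inc2]
  rw [e]
  exact PresentedGroup.one_of_mem (Or.inr (by simp [Cfsg.Agent.Helper28.F22.Q1.extra]))

theorem rel1 : ∀ r ∈ (Cfsg.Spor.coxRelators Cfsg.Agent.Helper28.F22.Q2.edges ∪ {r | r ∈ Cfsg.Agent.Helper28.F22.Q2.extra}), FreeGroup.lift (fun y => (PresentedGroup.of (Cfsg.Agent.Helper28.O73.inc2 y) : Cfsg.Agent.Helper28.O73.Q)) r = 1 := by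
  intro r hr
  rcases hr with ⟨x, _, y, _, rfl⟩ | hr
  · rw [map_pow, map_mul, FreeGroup.lift_apply_of, FreeGroup.lift_apply_of]
    have e : Cfsg.Spor.coxLabel Cfsg.Agent.Helper28.F22.Q2.edges x y = Cfsg.Spor.coxLabel Cfsg.Agent.Helper28.F22.Q1.edges (Cfsg.Agent.Helper28.O73.inc2 x) (Cfsg.Agent.Helper28.O73.inc2 y) := by
      cases x <;> cases y <;> decide
    rw [e]
    exact Cfsg.Agent.Helper28.cox_pair Cfsg.Agent.Helper28.F22.Q1.edges Cfsg.Agent.Helper28.F22.Q1.extra _ _ (node _) (node _)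
  · have hr' : r ∈ Cfsg.Agent.Helper28.F22.Q2.extra := hr
    simp only [Cfsg.Agent.Helper28.F22.Q2.extra, List.mem_cons, List.not_mem_nil, or_false] at hr'
    rcases hr' with rfl
    · exact relE1_0

/-- the homomorphism from the auxiliary group -/
noncomputable def f1 : Cfsg.Spor.CoxPresented Cfsg.Agent.Helper28.F22.Q2.Gen Cfsg.Agent.Helper28.F22.Q2.edges Cfsg.Agent.Helper28.F22.Q2.extra →* Cfsg.Agent.Helper28.O73.Q :=
  PresentedGroup.toGroup rel1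

theorem range1 : f1.range = (Subgroup.closure ({Cfsg.Agent.Helper28.F22.Q1.b, Cfsg.Agent.Helper28.F22.Q1.c, Cfsg.Agent.Helper28.F22.Q1.d, Cfsg.Agent.Helper28.F22.Q1.e, Cfsg.Agent.Helper28.F22.Q1.f, Cfsg.Agent.Helper28.F22.Q1.g, Cfsg.Agent.Helper28.F22.Q1.h} : Set (FreeGroup Cfsg.Agent.Helper28.F22.Q1.Gen))).map (PresentedGroup.mk (Cfsg.Spor.coxRelators Cfsg.Agent.Helper28.F22.Q1.edges ∪ {r | r ∈ Cfsg.Agent.Helper28.F22.Q1.extra})) := by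
  rw [f1, Cfsg.Agent.Helper28.toGroup_range, MonoidHom.map_closure]
  congr 1
  ext z
  constructor
  · rintro ⟨y, rfl⟩
    cases y
    · exact ⟨Cfsg.Agent.Helper28.F22.Q1.b, by simp, rfl⟩
    · exact ⟨Cfsg.Agent.Helper28.F22.Q1.c, by simp, rfl⟩
    · exact ⟨Cfsg.Agent.Helper28.F22.Q1.d, by simp, rfl⟩
    · exact ⟨Cfsg.Agent.Helper28.F22.Q1.e, by simp, rfl⟩
    · exact ⟨Cfsg.Agent.Helper28.F22.Q1.f, by simp, rfl⟩
    · exact ⟨Cfsg.Agent.Helper28.F22.Q1.g, by simp, rfl⟩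
    · exact ⟨Cfsg.Agent.Helper28.F22.Q1.h, by simp, rfl⟩
  · rintro ⟨s, hs, rfl⟩
    simp only [Set.mem_insert_iff, Set.mem_singleton_iff] at hs
    rcases hs with rfl | rfl | rfl | rfl | rfl | rfl | rfl
    · exact ⟨Cfsg.Agent.Helper28.F22.Q2.Gen.b, rfl⟩
    · exact ⟨Cfsg.Agent.Helper28.F22.Q2.Gen.c, rfl⟩
    · exact ⟨Cfsg.Agent.Helper28.F22.Q2.Gen.d, rfl⟩
    · exact ⟨Cfsg.Agent.Helper28.F22.Q2.Gen.e, rfl⟩
    · exact ⟨Cfsg.Agent.Helper28.F22.Q2.Gen.f, rfl⟩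
    · exact ⟨Cfsg.Agent.Helper28.F22.Q2.Gen.g, rfl⟩
    · exact ⟨Cfsg.Agent.Helper28.F22.Q2.Gen.h, rfl⟩

theorem rel2 : ∀ r ∈ (Cfsg.Spor.coxRelators Cfsg.Agent.Helper28.F22.Q3.edges ∪ {r | r ∈ Cfsg.Agent.Helper28.F22.Q3.extra}), FreeGroup.lift (fun y => (PresentedGroup.of (Cfsg.Agent.Helper28.O73.inc3 y) : Cfsg.Agent.Helper28.O73.Q)) r = 1 := by
  intro r hr
  rcases hr with ⟨x, _, y, _, rfl⟩ | hr
  · rw [map_pow, map_mul, FreeGroup.lift_apply_of, FreeGroup.lift_apply_of]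
    have e : Cfsg.Spor.coxLabel Cfsg.Agent.Helper28.F22.Q3.edges x y = Cfsg.Spor.coxLabel Cfsg.Agent.Helper28.F22.Q1.edges (Cfsg.Agent.Helper28.O73.inc3 x) (Cfsg.Agent.Helper28.O73.inc3 y) := by
      cases x <;> cases y <;> decide
    rw [e]
    exact Cfsg.Agent.Helper28.cox_pair Cfsg.Agent.Helper28.F22.Q1.edges Cfsg.Agent.Helper28.F22.Q1.extra _ _ (node _) (node _)
  · have hr' : r ∈ Cfsg.Agent.Helper28.F22.Q3.extra := hr
    exact absurd hr' (by simp [Cfsg.Agent.Helper28.F22.Q3.extra])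

/-- the homomorphism from the auxiliary group -/
noncomputable def f2 : Cfsg.Spor.CoxPresented Cfsg.Agent.Helper28.F22.Q3.Gen Cfsg.Agent.Helper28.F22.Q3.edges Cfsg.Agent.Helper28.F22.Q3.extra →* Cfsg.Agent.Helper28.O73.Q :=
  PresentedGroup.toGroup rel2

theorem range2 : ((Subgroup.closure ({Cfsg.Agent.Helper28.F22.Q2.b, Cfsg.Agent.Helper28.F22.Q2.c, Cfsg.Agent.Helper28.F22.Q2.d, Cfsg.Agent.Helper28.F22.Q2.e, Cfsg.Agent.Helper28.F22.Q2.f} : Set (FreeGroup Cfsg.Agent.Helper28.F22.Q2.Gen))).map (PresentedGroup.mk (Cfsg.Spor.coxRelators Cfsg.Agent.Helper28.F22.Q2.edges ∪ {r | r ∈ Cfsg.Agent.Helper28.F22.Q2.extra}))).map f1 = f2.range := by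
  rw [f1, f2, Cfsg.Agent.Helper28.toGroup_range, Cfsg.Agent.Helper28.toGroup_map_closure]
  congr 1
  ext z
  constructor
  · rintro ⟨s, hs, rfl⟩
    simp only [Set.mem_insert_iff, Set.mem_singleton_iff] at hs
    rcases hs with rfl | rfl | rfl | rfl | rfl
    · exact ⟨Cfsg.Agent.Helper28.F22.Q3.Gen.b, (FreeGroup.lift_apply_of (f := (fun y => (PresentedGroup.of (Cfsg.Agent.Helper28.O73.inc2 y) : Cfsg.Agent.Helper28.O73.Q))) (x := Cfsg.Agent.Helper28.F22.Q2.Gen.b)).symm⟩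
    · exact ⟨Cfsg.Agent.Helper28.F22.Q3.Gen.c, (FreeGroup.lift_apply_of (f := (fun y => (PresentedGroup.of (Cfsg.Agent.Helper28.O73.inc2 y) : Cfsg.Agent.Helper28.O73.Q))) (x := Cfsg.Agent.Helper28.F22.Q2.Gen.c)).symm⟩
    · exact ⟨Cfsg.Agent.Helper28.F22.Q3.Gen.d, (FreeGroup.lift_apply_of (f := (fun y => (PresentedGroup.of (Cfsg.Agent.Helper28.O73.inc2 y) : Cfsg.Agent.Helper28.O73.Q))) (x := Cfsg.Agent.Helper28.F22.Q2.Gen.d)).symm⟩
    · exact ⟨Cfsg.Agent.Helper28.F22.Q3.Gen.e, (FreeGroup.lift_apply_of (f := (fun y => (PresentedGroup.of (Cfsg.Agent.Helper28.O73.inc2 y) : Cfsg.Agent.Helper28.O73.Q))) (x := Cfsg.Agent.Helper28.F22.Q2.Gen.e)).symm⟩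
    · exact ⟨Cfsg.Agent.Helper28.F22.Q3.Gen.f, (FreeGroup.lift_apply_of (f := (fun y => (PresentedGroup.of (Cfsg.Agent.Helper28.O73.inc2 y) : Cfsg.Agent.Helper28.O73.Q))) (x := Cfsg.Agent.Helper28.F22.Q2.Gen.f)).symm⟩
  · rintro ⟨y, rfl⟩
    cases y
    · exact ⟨Cfsg.Agent.Helper28.F22.Q2.b, by simp, FreeGroup.lift_apply_of (f := (fun y => (PresentedGroup.of (Cfsg.Agent.Helper28.O73.inc2 y) : Cfsg.Agent.Helper28.O73.Q))) (x := Cfsg.Agent.Helper28.F22.Q2.Gen.b)⟩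
    · exact ⟨Cfsg.Agent.Helper28.F22.Q2.c, by simp, FreeGroup.lift_apply_of (f := (fun y => (PresentedGroup.of (Cfsg.Agent.Helper28.O73.inc2 y) : Cfsg.Agent.Helper28.O73.Q))) (x := Cfsg.Agent.Helper28.F22.Q2.Gen.c)⟩
    · exact ⟨Cfsg.Agent.Helper28.F22.Q2.d, by simp, FreeGroup.lift_apply_of (f := (fun y => (PresentedGroup.of (Cfsg.Agent.Helper28.O73.inc2 y) : Cfsg.Agent.Helper28.O73.Q))) (x := Cfsg.Agent.Helper28.F22.Q2.Gen.d)⟩
    · exact ⟨Cfsg.Agent.Helper28.F22.Q2.e, by simp, FreeGroup.lift_apply_of (f := (fun y => (PresentedGroup.of (Cfsg.Agent.Helper28.O73.inc2 y) : Cfsg.Agent.Helper28.O73.Q))) (x := Cfsg.Agent.Helper28.F22.Q2.Gen.e)⟩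
    · exact ⟨Cfsg.Agent.Helper28.F22.Q2.f, by simp, FreeGroup.lift_apply_of (f := (fun y => (PresentedGroup.of (Cfsg.Agent.Helper28.O73.inc2 y) : Cfsg.Agent.Helper28.O73.Q))) (x := Cfsg.Agent.Helper28.F22.Q2.Gen.f)⟩

theorem bot2 : ((Subgroup.closure (∅ : Set (FreeGroup Cfsg.Agent.Helper28.F22.Q3.Gen))).map (PresentedGroup.mk (Cfsg.Spor.coxRelators Cfsg.Agent.Helper28.F22.Q3.edges ∪ {r | r ∈ Cfsg.Agent.Helper28.F22.Q3.extra}))).map f2 = ⊥ := by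
  rw [Subgroup.closure_empty, Subgroup.map_bot, Subgroup.map_bot]

theorem card2 : Finite f2.range ∧ Nat.card f2.range ≤ 720 := by
  have h := Cfsg.Agent.Helper28.card_range_le f2 ((Subgroup.closure (∅ : Set (FreeGroup Cfsg.Agent.Helper28.F22.Q3.Gen))).map (PresentedGroup.mk (Cfsg.Spor.coxRelators Cfsg.Agent.Helper28.F22.Q3.edges ∪ {r | r ∈ Cfsg.Agent.Helper28.F22.Q3.extra}))) 720 Cfsg.Agent.Helper28.F22Q3.cert.index_eq (by norm_num) (by rw [bot2]; infer_instance)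
  rw [bot2, Subgroup.card_bot, Nat.mul_one] at h
  exact h

theorem card1 : Finite f1.range ∧ Nat.card f1.range ≤ 2016 * (720) := by
  have h0 := card2
  have h := Cfsg.Agent.Helper28.card_range_le f1 ((Subgroup.closure ({Cfsg.Agent.Helper28.F22.Q2.b, Cfsg.Agent.Helper28.F22.Q2.c, Cfsg.Agent.Helper28.F22.Q2.d, Cfsg.Agent.Helper28.F22.Q2.e, Cfsg.Agent.Helper28.F22.Q2.f} : Set (FreeGroup Cfsg.Agent.Helper28.F22.Q2.Gen))).map (PresentedGroup.mk (Cfsg.Spor.coxRelators Cfsg.Agent.Helper28.F22.Q2.edges ∪ {r | r ∈ Cfsg.Agent.Helper28.F22.Q2.extra}))) 2016 Cfsg.Agent.Helper28.F22Q2.cert.index_eq (by norm_num) (by rw [range2]; exact h0.1)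
  rw [range2] at h
  exact ⟨h.1, le_trans h.2 (Nat.mul_le_mul_left _ h0.2)⟩

/-- The presented group is finite, of order at most the expected one. -/
theorem card_le : Finite Cfsg.Agent.Helper28.O73.Q ∧ Nat.card Cfsg.Agent.Helper28.O73.Q ≤ 3159 * (2016 * (720)) := by
  have h1 := card1
  rw [range1] at h1
  have hmul := ((Subgroup.closure ({Cfsg.Agent.Helper28.F22.Q1.b, Cfsg.Agent.Helper28.F22.Q1.c, Cfsg.Agent.Helper28.F22.Q1.d, Cfsg.Agent.Helper28.F22.Q1.e, Cfsg.Agent.Helper28.F22.Q1.f, Cfsg.Agent.Helper28.F22.Q1.g, Cfsg.Agent.Helper28.F22.Q1.h} : Set (FreeGroup Cfsg.Agent.Helper28.F22.Q1.Gen))).map (PresentedGroup.mk (Cfsg.Spor.coxRelators Cfsg.Agent.Helper28.F22.Q1.edges ∪ {r | r ∈ Cfsg.Agent.Helper28.F22.Q1.extra}))).card_mul_index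
  rw [Cfsg.Agent.Helper28.F22Q1.cert.index_eq] at hmul
  have hfin := h1.1
  have hpos : 0 < Nat.card ((Subgroup.closure ({Cfsg.Agent.Helper28.F22.Q1.b, Cfsg.Agent.Helper28.F22.Q1.c, Cfsg.Agent.Helper28.F22.Q1.d, Cfsg.Agent.Helper28.F22.Q1.e, Cfsg.Agent.Helper28.F22.Q1.f, Cfsg.Agent.Helper28.F22.Q1.g, Cfsg.Agent.Helper28.F22.Q1.h} : Set (FreeGroup Cfsg.Agent.Helper28.F22.Q1.Gen))).map (PresentedGroup.mk (Cfsg.Spor.coxRelators Cfsg.Agent.Helper28.F22.Q1.edges ∪ {r | r ∈ Cfsg.Agent.Helper28.F22.Q1.extra}))) := Nat.card_pos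
  have hne : Nat.card Cfsg.Agent.Helper28.O73.Q ≠ 0 := by
    rw [← hmul]
    exact Nat.mul_ne_zero (Nat.pos_iff_ne_zero.mp hpos) (by norm_num)
  refine ⟨Nat.finite_of_card_ne_zero hne, ?_⟩
  rw [← hmul, Nat.mul_comm]
  exact Nat.mul_le_mul_left _ h1.2

end Cfsg.Agent.Helper28.O73
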