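import Cfsg.Agent.Helper28.O73.Mat
import Cfsg.Agent.Helper28.O73.Pres
import Cfsg.Agent.Helper28.TCH
import Cfsg.Agent.Helper28.F22Q1.Cert

/-!
# The group presented on `b, …, i` maps to the isometry group of the quadratic form (helper28)

The eight generators go to the negatives of the reflections in eight vectors `v` with `Q v = -1`; the
relators are checked by following the seven basis vectors through the relator words.
-/

set_option autoImplicit false

namespace Cfsg.Agent.Helper28.O73

open Cfsg.Agent.Helper28 Matrix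

/-- the matrices of the generators -/
def matOf : Cfsg.Agent.Helper28.F22.Q1.Gen → M7
  | .b => ((.t, .z, .z, .z, .z, .z, .z), (.z, .t, .z, .z, .z, .z, .z), (.z, .z, .z, .z, .z, .t, .z), (.z, .z, .z, .t, .z, .z, .z), (.z, .z, .z, .z, .t, .z, .z), (.z, .z, .t, .z, .z, .z, .z), (.z, .z, .z, .z, .z, .z, .t))
  | .c => ((.t, .z, .z, .z, .z, .z, .z), (.z, .t, .z, .z, .z, .z, .z), (.z, .z, .t, .z, .z, .z, .z), (.z, .z, .t, .z, .z, .z, .t), (.z, .z, .z, .z, .t, .z, .z), (.z, .z, .t, .o, .z, .t, .t), (.z, .z, .o, .t, .z, .z, .z))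
  | .d => ((.t, .z, .z, .z, .z, .z, .z), (.z, .t, .z, .z, .z, .z, .z), (.z, .z, .t, .z, .z, .z, .z), (.z, .z, .z, .z, .z, .z, .t), (.z, .z, .z, .z, .t, .z, .z), (.z, .z, .z, .z, .z, .t, .z), (.z, .z, .z, .t, .z, .z, .z))
  | .e => ((.t, .z, .z, .z, .z, .z, .z), (.z, .o, .o, .t, .t, .o, .z), (.z, .o, .o, .o, .o, .t, .z), (.z, .z, .z, .t, .z, .z, .z), (.z, .t, .o, .t, .o, .o, .z), (.z, .o, .t, .o, .o, .o, .z), (.z, .t, .o, .t, .t, .o, .t))
  | .f => ((.z, .z, .z, .t, .z, .z, .t), (.z, .t, .z, .z, .z, .z, .z), (.z, .z, .t, .z, .z, .z, .z), (.o, .z, .z, .o, .z, .z, .t), (.z, .z, .z, .z, .t, .z, .z), (.z, .z, .z, .z, .z, .t, .z), (.o, .z, .z, .t, .z, .z, .o))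
  | .g => ((.t, .z, .z, .z, .z, .z, .z), (.z, .o, .z, .t, .t, .z, .t), (.z, .z, .t, .z, .z, .z, .z), (.z, .t, .z, .o, .t, .z, .t), (.z, .t, .z, .t, .o, .z, .t), (.z, .z, .z, .z, .z, .t, .z), (.z, .t, .z, .t, .t, .z, .o))
  | .h => ((.t, .z, .z, .z, .z, .z, .z), (.z, .z, .o, .o, .t, .o, .t), (.z, .t, .o, .t, .o, .t, .o), (.z, .o, .o, .z, .t, .o, .t), (.z, .t, .t, .t, .z, .t, .o), (.z, .t, .t, .t, .o, .o, .o), (.z, .t, .t, .t, .o, .t, .z))
  | .i => ((.t, .z, .z, .z, .z, .z, .z), (.z, .z, .z, .z, .t, .z, .z), (.z, .z, .t, .z, .z, .z, .z), (.z, .z, .z, .t, .z, .z, .z), (.z, .t, .z, .z, .z, .z, .z), (.z, .z, .z, .z, .z, .t, .z), (.z, .z, .z, .z, .z, .z, .t))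

/-- the matrix of the generator with a given number -/
def gm (k : ℕ) : M7 := matOf (Cfsg.Agent.Helper28.F22Q1.gen k)

/-- the action of a generator on the codes of the vectors -/
noncomputable def stepV (k i : ℕ) : ℕ := codeOf (mv (gm k) (vecOf i))

theorem prod_mulVec (l : List ℕ) (i : ℕ) :
    (l.map (fun k => toM (gm k))).prod *ᵥ toV (vecOf i) = toV (vecOf (walkA stepV l i)) := by
  induction l with
  | nil => rw [List.map_nil, List.prod_nil, Matrix.one_mulVec, walkA_nil]
  | cons a l ih =>
    rw [List.map_cons, List.prod_cons, ← Matrix.mulVec_mulVec, ih, toM_mulVec, walkA_cons]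
    show toV (mv (gm a) (vecOf (walkA stepV l i))) = toV (vecOf (codeOf (mv (gm a) (vecOf (walkA stepV l i)))))
    rw [vecOf_codeOf]

theorem toV_b0 : toV (vecOf 1) = Pi.single (Sum.inl ()) 1 := by
  funext i
  rcases i with u | i | i
  · cases u; decide
  · fin_cases i <;> decide
  · fin_cases i <;> decide

theorem toV_b1 : toV (vecOf 3) = Pi.single (Sum.inr (Sum.inl 0)) 1 := by
  funext i
  rcases i with u | i | i
  · cases u; decide
  · fin_cases i <;> decide
  · fin_cases i <;> decide

theorem toV_b2 : toV (vecOf 9) = Pi.single (Sum.inr (Sum.inl 1)) 1 := by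
  funext i
  rcases i with u | i | i
  · cases u; decide
  · fin_cases i <;> decide
  · fin_cases i <;> decide

theorem toV_b3 : toV (vecOf 27) = Pi.single (Sum.inr (Sum.inl 2)) 1 := by
  funext i
  rcases i with u | i | i
  · cases u; decide
  · fin_cases i <;> decide
  · fin_cases i <;> decide

theorem toV_b4 : toV (vecOf 81) = Pi.single (Sum.inr (Sum.inr 0)) 1 := by
  funext i
  rcases i with u | i | i
  · cases u; decide
  · fin_cases i <;> decide
  · fin_cases i <;> decide

theorem toV_b5 : toV (vecOf 243) = Pi.single (Sum.inr (Sum.inr 1)) 1 := by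
  funext i
  rcases i with u | i | i
  · cases u; decide
  · fin_cases i <;> decide
  · fin_cases i <;> decide

theorem toV_b6 : toV (vecOf 729) = Pi.single (Sum.inr (Sum.inr 2)) 1 := by
  funext i
  rcases i with u | i | i
  · cases u; decide
  · fin_cases i <;> decide
  · fin_cases i <;> decide

/-- A matrix fixing the seven basis vectors is the identity. -/
theorem eq_one_of_basis (M : Matrix I7 I7 F3)
    (h : ∀ b ∈ [1, 3, 9, 27, 81, 243, 729], M *ᵥ toV (vecOf b) = toV (vecOf b)) : M = 1 := by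
  have h0 := h 1 (by simp)
  have h1 := h 3 (by simp)
  have h2 := h 9 (by simp)
  have h3 := h 27 (by simp)
  have h4 := h 81 (by simp)
  have h5 := h 243 (by simp)
  have h6 := h 729 (by simp)
  rw [toV_b0, Matrix.mulVec_single_one] at h0
  rw [toV_b1, Matrix.mulVec_single_one] at h1
  rw [toV_b2, Matrix.mulVec_single_one] at h2
  rw [toV_b3, Matrix.mulVec_single_one] at h3
  rw [toV_b4, Matrix.mulVec_single_one] at h4
  rw [toV_b5, Matrix.mulVec_single_one] at h5
  rw [toV_b6, Matrix.mulVec_single_one] at h6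
  ext i j
  rw [Matrix.one_apply]
  rcases j with j | j | j
  · have := congrFun h0 i
    rw [Matrix.col_apply, Pi.single_apply] at this
    exact this
  · fin_cases j
    · have := congrFun h1 i
      rw [Matrix.col_apply, Pi.single_apply] at this
      exact this
    · have := congrFun h2 i
      rw [Matrix.col_apply, Pi.single_apply] at this
      exact this
    · have := congrFun h3 i
      rw [Matrix.col_apply, Pi.single_apply] at this
      exact this
  · fin_cases j
    · have := congrFun h4 i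
      rw [Matrix.col_apply, Pi.single_apply] at this
      exact this
    · have := congrFun h5 i
      rw [Matrix.col_apply, Pi.single_apply] at this
      exact this
    · have := congrFun h6 i
      rw [Matrix.col_apply, Pi.single_apply] at this
      exact this

/-- a word fixes the codes of the seven basis vectors -/
noncomputable def basisChk (l : List ℕ) : Bool :=
  listAll [1, 3, 9, 27, 81, 243, 729] (fun b => Nat.beq (walkA stepV l b) b)

theorem prod_eq_one (l : List ℕ) (h : basisChk l = true) : (l.map (fun k => toM (gm k))).prod = 1 := by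
  apply eq_one_of_basis
  intro b hb
  rw [prod_mulVec, Nat.eq_of_beq_eq_true ((listAll_iff _ _).mp h b hb)]

theorem sqChk : allBelow 8 (fun k => basisChk [k, k]) = true := by decide +kernel

theorem toM_sq (x : Cfsg.Agent.Helper28.F22.Q1.Gen) : toM (matOf x) * toM (matOf x) = 1 := by
  have hc := Cfsg.Agent.Helper28.F22Q1.cert.hcode x
  have hk : Cfsg.Agent.Helper28.F22Q1.code x < 8 := hc.1
  have h := prod_eq_one [Cfsg.Agent.Helper28.F22Q1.code x, Cfsg.Agent.Helper28.F22Q1.code x]
    ((allBelow_iff _ _).mp sqChk _ hk)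
  rw [List.map_cons, List.map_cons, List.map_nil, List.prod_cons, List.prod_cons, List.prod_nil, mul_one,
    gm, hc.2] at h
  exact h

theorem qf_inv (x : Cfsg.Agent.Helper28.F22.Q1.Gen) : ∀ w : V7, qf (mv (matOf x) w) = qf w := by
  cases x <;> decide +kernel

/-- the invertible matrices of the generators -/
def gU (x : Cfsg.Agent.Helper28.F22.Q1.Gen) : Matrix.GeneralLinearGroup I7 F3 :=
  ⟨toM (matOf x), toM (matOf x), toM_sq x, toM_sq x⟩

theorem gU_mem (x : Cfsg.Agent.Helper28.F22.Q1.Gen) :
    gU x ∈ Cfsg.isometryGroup F3 (Cfsg.quadFormOdd 3 F3) := by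
  intro u _
  show Cfsg.quadFormOdd 3 F3 (toM (matOf x) *ᵥ u) = Cfsg.quadFormOdd 3 F3 u
  rw [← toV_ofFun u, toM_mulVec, quad_toV, quad_toV, qf_inv]

/-- the isometries of the generators -/
def gO (x : Cfsg.Agent.Helper28.F22.Q1.Gen) : Cfsg.isometryGroup F3 (Cfsg.quadFormOdd 3 F3) :=
  ⟨gU x, gU_mem x⟩

theorem gO_val_prod (l : List ℕ) :
    ((((l.map (fun k => gO (Cfsg.Agent.Helper28.F22Q1.gen k))).prod :
      Cfsg.isometryGroup F3 (Cfsg.quadFormOdd 3 F3)) : Matrix.GeneralLinearGroup I7 F3) :
        Matrix I7 I7 F3) = (l.map (fun k => toM (gm k))).prod := by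
  induction l with
  | nil => rfl
  | cons a l ih =>
    rw [List.map_cons, List.prod_cons, List.map_cons, List.prod_cons, ← ih]
    rfl

theorem gO_prod_eq_one (l : List ℕ) (h : basisChk l = true) :
    (l.map (fun k => gO (Cfsg.Agent.Helper28.F22Q1.gen k))).prod = 1 := by
  apply Subtype.ext
  apply Units.ext
  rw [gO_val_prod, prod_eq_one l h]
  rfl

theorem gO_sq (x : Cfsg.Agent.Helper28.F22.Q1.Gen) : gO x * gO x = 1 := by
  apply Subtype.ext
  apply Units.ext
  exact toM_sq x

theorem relChk1 : listAll (Cfsg.Agent.Helper28.F22Q1.pairs.map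
    (fun p => Cfsg.Agent.Helper28.pairWord p.1 p.2.1 p.2.2)) basisChk = true := by decide +kernel

theorem relChk2 : listAll Cfsg.Agent.Helper28.F22Q1.extraL basisChk = true := by decide +kernel

/-- the homomorphism to the isometry group -/
noncomputable def psi0 : Q →* Cfsg.isometryGroup F3 (Cfsg.quadFormOdd 3 F3) :=
  PresentedGroup.toGroup (Cfsg.Agent.Helper28.F22Q1.cert.lift_rel gO gO_sq
    (fun l hl => gO_prod_eq_one l (by
      rcases List.mem_append.mp hl with h | h
      · exact (listAll_iff _ _).mp relChk1 l h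
      · exact (listAll_iff _ _).mp relChk2 l h)))

theorem psi0_of (x : Cfsg.Agent.Helper28.F22.Q1.Gen) : psi0 (PresentedGroup.of x) = gO x :=
  PresentedGroup.toGroup.of _

end Cfsg.Agent.Helper28.O73
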